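import Mathlib.GroupTheory.Sylow
import Mathlib.GroupTheory.PGroup
import Mathlib.Data.Nat.ChineseRemainder

/-!
Lifting two commuting elements of coprime prime orders and a normalising element along a surjection.
-/

set_option autoImplicit false

namespace Cfsg.Agent.Lib.Chev.F4AltSection

variable {H Q : Type*} [Group H] [Group Q]

/-- A maximal `a`-subgroup inside a subgroup. -/
def MaxP (a : ℕ) (K P : Subgroup H) : Prop :=
  P ≤ K ∧ IsPGroup a P ∧ ∀ P' : Subgroup H, P' ≤ K → IsPGroup a P' → P ≤ P' → P' = P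

theorem exists_maxP [Finite H] (a : ℕ) (K : Subgroup H) {S : Subgroup H} (hS : IsPGroup a S) (hSK : S ≤ K) :
    ∃ P, S ≤ P ∧ MaxP a K P := by
  obtain ⟨R, hR⟩ := (hS.comap_of_injective K.subtype K.subtype_injective : IsPGroup a (S.subgroupOf K)).exists_le_sylow
  refine ⟨(R : Subgroup K).map K.subtype, fun x hx => ⟨⟨x, hSK hx⟩, hR hx, rfl⟩, Subgroup.map_subtype_le _,
    R.isPGroup'.map _, fun P' h1 h2 h3 => ?_⟩
  have h4 := R.is_maximal' (h2.comap_of_injective K.subtype K.subtype_injective : IsPGroup a (P'.subgroupOf K))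
    fun x hx => h3 ⟨x, hx, rfl⟩
  rw [← h4, Subgroup.map_comap_eq, Subgroup.range_subtype, inf_eq_right.2 h1]

theorem MaxP.conj [Finite H] {a : ℕ} [Fact a.Prime] {K P P' : Subgroup H} (hP : MaxP a K P) (hP' : MaxP a K P') :
    ∃ k ∈ K, ∀ x, x ∈ P' ↔ k * x * k⁻¹ ∈ P := by
  obtain ⟨R, hR⟩ := (hP.2.1.comap_of_injective K.subtype K.subtype_injective : IsPGroup a (P.subgroupOf K)).exists_le_sylow
  obtain ⟨R', hR'⟩ := (hP'.2.1.comap_of_injective K.subtype K.subtype_injective : IsPGroup a (P'.subgroupOf K)).exists_le_sylow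
  obtain ⟨k, hk⟩ := MulAction.exists_smul_eq ↥K R' R
  have e : ∀ (P : Subgroup H), MaxP a K P → ∀ R : Sylow a ↥K, P.subgroupOf K ≤ R → (R : Subgroup K).map K.subtype = P :=
    fun P hP R hR => hP.2.2 _ (Subgroup.map_subtype_le _) (R.isPGroup'.map _) fun x hx => ⟨⟨x, hP.1 hx⟩, hR hx, rfl⟩
  refine ⟨k, k.2, fun x => ?_⟩
  rw [← e P hP R hR, ← e P' hP' R' hR']
  have key : ∀ y : K, y ∈ (R' : Subgroup K) ↔ k * y * k⁻¹ ∈ (R : Subgroup K) := fun y => by
    rw [← hk, Sylow.smul_def, Sylow.pointwise_smul_def, Subgroup.mem_pointwise_smul_iff_inv_smul_mem]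
    simp only [← map_inv, MulAut.smul_def, MulAut.conj_apply, inv_inv]
    rw [show k⁻¹ * (k * y * k⁻¹) * k = y by group]
  constructor
  · rintro ⟨y, hy, rfl⟩
    exact ⟨k * y * k⁻¹, (key y).1 hy, rfl⟩
  · rintro ⟨y, hy, e'⟩
    refine ⟨k⁻¹ * y * k, (key _).2 (by rwa [show k * (k⁻¹ * y * k) * k⁻¹ = y by group]), ?_⟩
    show ((k : H))⁻¹ * K.subtype y * (k : H) = x
    rw [e']; group

/-- The part of an element with given image. -/
theorem exists_part [Finite H] (π : H →* Q) {a : ℕ} (ha : a.Prime) (w : H) (hw : π w ^ a = 1) :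
    ∃ e : ℕ, IsPGroup a (Subgroup.zpowers (w ^ e)) ∧ π (w ^ e) = π w := by
  set N := orderOf w with hN
  have hN0 : N ≠ 0 := (orderOf_pos w).ne'
  obtain ⟨k, m, hm, hNe⟩ := Nat.exists_eq_pow_mul_and_not_dvd hN0 a ha.ne_one
  have hco : Nat.Coprime m a := (Nat.coprime_comm).1 ((Nat.Prime.coprime_iff_not_dvd ha).2 hm)
  obtain ⟨e, he1, he2⟩ := Nat.chineseRemainder hco 0 1
  refine ⟨e, fun x => ⟨k, ?_⟩, ?_⟩
  · obtain ⟨x, hx⟩ := x
    obtain ⟨j, rfl⟩ := Subgroup.mem_zpowers_iff.1 hx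
    refine Subtype.ext ?_
    show ((w ^ e) ^ j) ^ a ^ k = 1
    obtain ⟨e', he'⟩ := Nat.modEq_zero_iff_dvd.1 he1
    rw [← zpow_natCast, ← zpow_mul, mul_comm, zpow_mul, zpow_natCast, ← pow_mul, he',
      show m * e' * a ^ k = a ^ k * m * e' by ring, ← hNe, pow_mul, pow_orderOf_eq_one, one_pow, one_zpow]
  · rw [map_pow]
    have h1 : e % a = 1 := by
      rw [he2, Nat.one_mod_eq_one]
      exact ha.ne_one
    rw [← Nat.div_add_mod e a, h1, pow_add, pow_mul, hw, one_pow, one_mul, pow_one]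

theorem conj_comap {π : H →* Q} {S : Subgroup Q} {h : H} (hS : ∀ x, x ∈ S ↔ π h * x * (π h)⁻¹ ∈ S) (x : H) :
    x ∈ S.comap π ↔ h * x * h⁻¹ ∈ S.comap π := by
  rw [Subgroup.mem_comap, Subgroup.mem_comap, map_mul, map_mul, map_inv]
  exact hS _

theorem MaxP.conj_image {a : ℕ} {K P : Subgroup H} (hP : MaxP a K P) {h : H} (hK : ∀ x, x ∈ K ↔ h * x * h⁻¹ ∈ K) :
    MaxP a K (P.map (MulAut.conj h).toMonoidHom) := by
  refine ⟨?_, hP.2.1.map _, fun P' h1 h2 h3 => ?_⟩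
  · rintro _ ⟨x, hx, rfl⟩
    exact (hK x).1 (hP.1 hx)
  · have h4 := hP.2.2 (P'.comap (MulAut.conj h).toMonoidHom)
      (fun x hx => (hK x).2 (h1 hx))
      (h2.comap_of_injective _ (MulAut.conj h).injective)
      (fun x hx => h3 ⟨x, hx, rfl⟩)
    rw [← h4, Subgroup.map_comap_eq_self_of_surjective (MulAut.conj h).surjective]

/-- Frattini: correct `h` to normalise a maximal `a`-subgroup. -/
theorem MaxP.frattini [Finite H] {a : ℕ} [Fact a.Prime] {K P : Subgroup H} (hP : MaxP a K P) {h : H}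
    (hK : ∀ x, x ∈ K ↔ h * x * h⁻¹ ∈ K) :
    ∃ k ∈ K, ∀ x, x ∈ P ↔ (k * h) * x * (k * h)⁻¹ ∈ P := by
  obtain ⟨k, hk, e⟩ := hP.conj (hP.conj_image hK)
  refine ⟨k, hk, fun x => ?_⟩
  rw [show k * h * x * (k * h)⁻¹ = k * (h * x * h⁻¹) * k⁻¹ by group, ← e]
  constructor
  · exact fun hx => ⟨x, hx, rfl⟩
  · rintro ⟨y, hy, e'⟩
    rwa [← (MulAut.conj h).injective e']

theorem zpowers_conj_iff [Finite Q] {g s : Q} (h : g * s * g⁻¹ ∈ Subgroup.zpowers s) (x : Q) :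
    x ∈ Subgroup.zpowers s ↔ g * x * g⁻¹ ∈ Subgroup.zpowers s := by
  have e : (Subgroup.zpowers s).map (MulAut.conj g).toMonoidHom = Subgroup.zpowers s := by
    refine Subgroup.eq_of_le_of_card_ge ?_ (Nat.card_congr
      ((Subgroup.zpowers s).equivMapOfInjective _ (MulAut.conj g).injective).toEquiv).le
    rw [MonoidHom.map_zpowers, Subgroup.zpowers_le]
    exact h
  constructor
  · exact fun hx => e.le ⟨x, hx, rfl⟩
  · intro hx
    rw [← e] at hx
    obtain ⟨y, hy, e'⟩ := hx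
    rwa [← (MulAut.conj g).injective e']

theorem lift_one [Finite H] [Finite Q] (π : H →* Q) (hπ : Function.Surjective π) {a : ℕ} [Fact a.Prime] {s g : Q}
    (hs : s ^ a = 1) (hg : g * s * g⁻¹ ∈ Subgroup.zpowers s) :
    ∃ (A : Subgroup H) (γ : H), IsPGroup a A ∧ (∀ x ∈ A, γ * x * γ⁻¹ ∈ A) ∧ (∃ x ∈ A, π x = s) ∧
      ∃ c : Q, Commute c s ∧ π γ = c * g := by
  obtain ⟨s₀, rfl⟩ := hπ s
  obtain ⟨e, he, hes⟩ := exists_part π (Fact.out : a.Prime) s₀ hs
  set K := (Subgroup.zpowers (π s₀)).comap π with hK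
  obtain ⟨A, hA, hmax⟩ := exists_maxP a K he (by
    rw [Subgroup.zpowers_le, hK, Subgroup.mem_comap, hes]; exact Subgroup.mem_zpowers _)
  obtain ⟨h, rfl⟩ := hπ g
  obtain ⟨k, hk, hnorm⟩ := hmax.frattini (conj_comap (zpowers_conj_iff hg))
  refine ⟨A, k * h, hmax.2.1, fun x hx => (hnorm x).1 hx, ⟨_, hA (Subgroup.mem_zpowers _), hes⟩, π k, ?_, map_mul _ _ _⟩
  obtain ⟨j, hj⟩ := Subgroup.mem_zpowers_iff.1 (Subgroup.mem_comap.1 hk)
  rw [← hj]
  exact Commute.zpow_self _ _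

theorem lift_pair [Finite H] [Finite Q] (π : H →* Q) (hπ : Function.Surjective π) {a b : ℕ} [Fact a.Prime]
    [Fact b.Prime] (hab : a ≠ b) {s t g : Q} (hs : s ^ a = 1) (ht : t ^ b = 1) (hst : Commute s t)
    (hgs : g * s * g⁻¹ ∈ Subgroup.zpowers s) (hgt : g * t * g⁻¹ ∈ Subgroup.zpowers t) :
    ∃ (A B : Subgroup H) (γ : H), IsPGroup a A ∧ IsPGroup b B ∧ (∀ x ∈ A, ∀ y ∈ B, x * y = y * x) ∧
      (∀ x ∈ A, γ * x * γ⁻¹ ∈ A) ∧ (∀ y ∈ B, γ * y * γ⁻¹ ∈ B) ∧ (∃ x ∈ A, π x = s) ∧ (∃ y ∈ B, π y = t) ∧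
      ∃ c : Q, Commute c s ∧ Commute c t ∧ π γ = c * g := by
  set T := Subgroup.zpowers t with hT
  obtain ⟨t₀, ht₀⟩ := hπ t
  obtain ⟨e, he, het⟩ := exists_part π (Fact.out : b.Prime) t₀ (ht₀ ▸ ht)
  rw [ht₀] at het
  obtain ⟨P, hP, hPmax⟩ := exists_maxP b (T.comap π) he (by
    rw [Subgroup.zpowers_le, Subgroup.mem_comap, het]; exact Subgroup.mem_zpowers _)
  set y₀ := t₀ ^ e with hy₀
  have hy₀P : y₀ ∈ P := hP (Subgroup.mem_zpowers _)
  have hsT : s * t * s⁻¹ ∈ T := by rw [hst.eq, mul_inv_cancel_right]; exact Subgroup.mem_zpowers _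
  -- lifts normalising `P`
  obtain ⟨h₁, rfl⟩ := hπ s
  obtain ⟨h₂, rfl⟩ := hπ g
  obtain ⟨k₁, hk₁, hn₁⟩ := hPmax.frattini (conj_comap (zpowers_conj_iff hsT))
  obtain ⟨k₂, hk₂, hn₂⟩ := hPmax.frattini (conj_comap (zpowers_conj_iff hgt))
  set s' := π h₁ with hs'
  have hco : Nat.Coprime b a := (Nat.coprime_primes Fact.out Fact.out).2 hab.symm
  obtain ⟨f, hf1, hf2⟩ := Nat.chineseRemainder hco 0 1
  obtain ⟨i₁, hi₁⟩ := Subgroup.mem_zpowers_iff.1 (Subgroup.mem_comap.1 hk₁)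
  have hf : π ((k₁ * h₁) ^ f) = s' := by
    rw [map_pow, map_mul, ← hi₁, (Commute.zpow_left hst.symm i₁).mul_pow]
    obtain ⟨f', rfl⟩ := Nat.modEq_zero_iff_dvd.1 hf1
    rw [← zpow_natCast (t ^ i₁), ← zpow_mul, mul_comm, zpow_mul, Nat.cast_mul, zpow_mul, zpow_natCast, zpow_natCast, ht,
      one_pow, one_zpow, one_mul]
    have h1 : b * f' % a = 1 := by rw [hf2, Nat.one_mod_eq_one]; exact (Fact.out : a.Prime).ne_one
    rw [← Nat.div_add_mod (b * f') a, h1, pow_add, pow_mul, hs, one_pow, one_mul, pow_one]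
  obtain ⟨e₁, he₁, he₁s⟩ := exists_part π (Fact.out : a.Prime) ((k₁ * h₁) ^ f) (by rw [hf]; exact hs)
  rw [hf] at he₁s
  set NP := Subgroup.normalizer (P : Set H) with hNP
  set ST := Subgroup.closure ({s', t} : Set Q) with hST
  have hcomm : ∀ x ∈ ST, Commute x s' ∧ Commute x t := by
    intro x hx
    induction hx using Subgroup.closure_induction with
    | mem x hx =>
      rcases hx with rfl | rfl
      · exact ⟨Commute.refl _, hst⟩
      · exact ⟨hst.symm, Commute.refl _⟩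
    | one => exact ⟨Commute.one_left _, Commute.one_left _⟩
    | mul x y _ _ hx hy => exact ⟨hx.1.mul_left hy.1, hx.2.mul_left hy.2⟩
    | inv x _ hx => exact ⟨hx.1.inv_left, hx.2.inv_left⟩
  set K := NP ⊓ ST.comap π with hK
  have hTST : T ≤ ST := Subgroup.zpowers_le.2 (Subgroup.subset_closure (by simp))
  have hs'K : (k₁ * h₁) ^ f ^ 1 ∈ NP := pow_mem (Subgroup.mem_normalizer_iff.2 hn₁) _
  obtain ⟨A, hA, hAmax⟩ := exists_maxP a K he₁ (by
    rw [Subgroup.zpowers_le]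
    refine ⟨pow_mem (pow_mem (Subgroup.mem_normalizer_iff.2 hn₁) _) _, ?_⟩
    show π _ ∈ ST
    rw [he₁s]
    exact Subgroup.subset_closure (by simp))
  set x₀ := ((k₁ * h₁) ^ f) ^ e₁ with hx₀
  have hx₀A : x₀ ∈ A := hA (Subgroup.mem_zpowers _)
  -- the normalising element
  set h := k₂ * h₂ with hh
  obtain ⟨i₂, hi₂⟩ := Subgroup.mem_zpowers_iff.1 (Subgroup.mem_comap.1 hk₂)
  have hπh : π h = t ^ i₂ * π h₂ := by rw [hh, map_mul, hi₂]
  have hhS : ∀ x : Q, x ∈ ST ↔ π h * x * (π h)⁻¹ ∈ ST := by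
    have e : ST.map (MulAut.conj (π h)).toMonoidHom = ST := by
      refine Subgroup.eq_of_le_of_card_ge ?_ (Nat.card_congr
        (ST.equivMapOfInjective _ (MulAut.conj (π h)).injective).toEquiv).le
      rw [hST, MonoidHom.map_closure, Subgroup.closure_le]
      rintro _ ⟨x, hx, rfl⟩
      show π h * x * (π h)⁻¹ ∈ ST
      have h1 : π h * x * (π h)⁻¹ = t ^ i₂ * (π h₂ * x * (π h₂)⁻¹) * (t ^ i₂)⁻¹ := by rw [hπh]; group
      rw [h1]
      have hti : t ^ i₂ ∈ ST := zpow_mem (Subgroup.subset_closure (by simp)) _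
      refine mul_mem (mul_mem hti ?_) (inv_mem hti)
      rcases hx with rfl | rfl
      · exact (Subgroup.zpowers_le.2 (Subgroup.subset_closure (by simp : s' ∈ ({s', t} : Set Q)))) hgs
      · exact hTST hgt
    intro x
    constructor
    · exact fun hx => e.le ⟨x, hx, rfl⟩
    · intro hx
      rw [← e] at hx
      obtain ⟨y, hy, e'⟩ := hx
      rwa [← (MulAut.conj (π h)).injective e']
  have hhN : h ∈ NP := Subgroup.mem_normalizer_iff.2 hn₂
  have hKh : ∀ x, x ∈ K ↔ h * x * h⁻¹ ∈ K := fun x => by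
    rw [hK, Subgroup.mem_inf, Subgroup.mem_inf]
    refine and_congr ?_ (conj_comap hhS x)
    exact ⟨fun hx => mul_mem (mul_mem hhN hx) (inv_mem hhN), fun hx => by
      simpa [mul_assoc] using mul_mem (mul_mem (inv_mem hhN) hx) hhN⟩
  obtain ⟨k, hk, hγA⟩ := hAmax.frattini hKh
  set γ := k * h with hγ
  -- the part of `P` commuting with `A`
  set B := P ⊓ Subgroup.centralizer (A : Set H) with hB
  have hγP : ∀ y, y ∈ P ↔ γ * y * γ⁻¹ ∈ P :=
    Subgroup.mem_normalizer_iff.1 (mul_mem hk.1 hhN)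
  refine ⟨A, B, γ, hAmax.2.1, hPmax.2.1.to_le inf_le_left, fun x hx y hy => Subgroup.mem_centralizer_iff.1 hy.2 x hx,
    fun x hx => (hγA x).1 hx, fun y hy => ⟨(hγP y).1 hy.1, Subgroup.mem_centralizer_iff.2 fun x hx => ?_⟩,
    ⟨x₀, hx₀A, he₁s⟩, ?_, π k * t ^ i₂, (hcomm _ hk.2).1.mul_left (Commute.zpow_left hst.symm i₂),
    (hcomm _ hk.2).2.mul_left (Commute.zpow_self t i₂), by rw [hγ, map_mul, hπh, mul_assoc]⟩
  · have hx' : γ⁻¹ * x * γ ∈ A := (hγA _).2 (by simpa [mul_assoc] using hx)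
    calc x * (γ * y * γ⁻¹) = γ * ((γ⁻¹ * x * γ) * y) * γ⁻¹ := by group
      _ = γ * (y * (γ⁻¹ * x * γ)) * γ⁻¹ := by rw [Subgroup.mem_centralizer_iff.1 hy.2 _ hx']
      _ = γ * y * γ⁻¹ * x := by group
  · -- coprime action
    set K' := (P ⊓ π.ker) ⊔ A with hK'
    have hπA : ∀ x ∈ A, π x ∈ Subgroup.zpowers s' := by
      intro x hx
      obtain ⟨k', hk'⟩ := hAmax.2.1 ⟨x, hx⟩
      have hxa : π x ^ a ^ k' = 1 := by
        rw [← map_pow, show x ^ a ^ k' = 1 from congrArg Subtype.val hk', map_one]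
      have hxST : π x ∈ ST := (hAmax.1 hx).2
      obtain ⟨i, j, hij⟩ : ∃ i j : ℤ, π x = s' ^ i * t ^ j := by
        clear hxa
        generalize π x = w at hxST ⊢
        induction hxST using Subgroup.closure_induction with
        | mem z hz =>
          rcases hz with rfl | rfl
          · exact ⟨1, 0, by simp⟩
          · exact ⟨0, 1, by simp⟩
        | one => exact ⟨0, 0, by simp⟩
        | mul y z _ _ hy hz =>
          obtain ⟨i, j, rfl⟩ := hy
          obtain ⟨i', j', rfl⟩ := hz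
          refine ⟨i + i', j + j', ?_⟩
          rw [zpow_add, zpow_add, mul_assoc, ← mul_assoc (t ^ j), ← (hst.zpow_zpow i' j).eq]
          group
        | inv y _ hy =>
          obtain ⟨i, j, rfl⟩ := hy
          exact ⟨-i, -j, by rw [_root_.mul_inv_rev, zpow_neg, zpow_neg]; exact ((hst.zpow_zpow i j).inv_inv).eq.symm⟩
      rw [hij]
      refine mul_mem (zpow_mem (Subgroup.mem_zpowers _) _) ?_
      have htj : (t ^ j) ^ (a ^ k' * a) = 1 := by
        have h1 : (π x) ^ (a ^ k' * a) = 1 := by rw [pow_mul, hxa, one_pow]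
        rw [hij, (hst.zpow_zpow i j).mul_pow] at h1
        have h2 : (s' ^ i) ^ (a ^ k' * a) = 1 := by
          rw [mul_comm, pow_mul, ← zpow_natCast (s' ^ i) a, ← zpow_mul, mul_comm i, zpow_mul, zpow_natCast, hs,
            one_zpow, one_pow]
        rwa [h2, one_mul] at h1
      have hb' : (t ^ j) ^ b = 1 := by
        rw [← zpow_natCast, ← zpow_mul, mul_comm, zpow_mul, zpow_natCast, ht, one_zpow]
      have h3 : orderOf (t ^ j) = 1 := Nat.eq_one_of_dvd_coprimes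
        ((hco.pow_right k').mul_right hco) (orderOf_dvd_of_pow_eq_one hb') (orderOf_dvd_of_pow_eq_one htj)
      rw [orderOf_eq_one_iff.1 h3]
      exact one_mem _
    have hπK' : ∀ x ∈ K', π x ∈ Subgroup.zpowers s' := by
      have : K' ≤ (Subgroup.zpowers s').comap π := sup_le
        (fun x hx => by rw [Subgroup.mem_comap, MonoidHom.mem_ker.1 hx.2]; exact one_mem _) hπA
      exact fun x hx => this hx
    have hK'NP : K' ≤ NP := sup_le (inf_le_left.trans Subgroup.le_normalizer) fun x hx => (hAmax.1 hx).1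
    have hy₀N : ∀ x, x ∈ P ↔ y₀ * x * y₀⁻¹ ∈ P := Subgroup.mem_normalizer_iff.1 (Subgroup.le_normalizer hy₀P)
    have hK'y : K'.map (MulAut.conj y₀).toMonoidHom = K' := by
      refine Subgroup.eq_of_le_of_card_ge ?_ (Nat.card_congr
        (K'.equivMapOfInjective _ (MulAut.conj y₀).injective).toEquiv).le
      rw [Subgroup.map_le_iff_le_comap]
      refine sup_le (fun x hx => Subgroup.mem_sup_left ⟨(hy₀N x).1 hx.1, ?_⟩) fun x hx => ?_
      · show π (y₀ * x * y₀⁻¹) = 1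
        rw [map_mul, map_mul, MonoidHom.mem_ker.1 hx.2, mul_one, map_inv, mul_inv_cancel]
      · show y₀ * x * y₀⁻¹ ∈ K'
        rw [show y₀ * x * y₀⁻¹ = (y₀ * (x * y₀⁻¹ * x⁻¹)) * x by group]
        refine mul_mem (Subgroup.mem_sup_left ⟨mul_mem hy₀P ?_, ?_⟩) (Subgroup.mem_sup_right hx)
        · exact (Subgroup.mem_normalizer_iff.1 (hAmax.1 hx).1 _).1 (inv_mem hy₀P)
        · show π (y₀ * (x * y₀⁻¹ * x⁻¹)) = 1
          obtain ⟨i, hi⟩ := Subgroup.mem_zpowers_iff.1 (hπA x hx)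
          rw [map_mul, map_mul, map_mul, map_inv, map_inv, het, ← hi,
            (hst.zpow_left i).inv_right.eq, mul_inv_cancel_right, mul_inv_cancel]
    have hAK' : MaxP a K' A := ⟨le_sup_right, hAmax.2.1, fun P' h1 h2 h3 => hAmax.2.2 P' (fun x hx => ⟨hK'NP (h1 hx), by
      exact (Subgroup.zpowers_le.2 (Subgroup.subset_closure (by simp : s' ∈ ({s', t} : Set Q)))) (hπK' x (h1 hx))⟩) h2 h3⟩
    obtain ⟨k', hk', hn⟩ := hAK'.frattini (h := y₀) fun x => by
      constructor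
      · exact fun hx => hK'y.le ⟨x, hx, rfl⟩
      · intro hx
        rw [← hK'y] at hx
        obtain ⟨z, hz, e'⟩ := hx
        rwa [← (MulAut.conj y₀).injective e']
    obtain ⟨i, hi⟩ := Subgroup.mem_zpowers_iff.1 (hπK' k' hk')
    set y₁ := (k' * y₀) ^ (a * ((Nat.chineseRemainder hco.symm 0 1) / a)) with hy₁
    obtain ⟨hd1, hd2⟩ := (Nat.chineseRemainder hco.symm 0 1).2
    have hπy₁ : π y₁ = t := by
      rw [hy₁, Nat.mul_div_cancel' (Nat.modEq_zero_iff_dvd.1 hd1), map_pow, map_mul, ← hi, het,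
        (Commute.zpow_left hst i).mul_pow]
      obtain ⟨d', hd'⟩ := Nat.modEq_zero_iff_dvd.1 hd1
      have h1 : (Nat.chineseRemainder hco.symm 0 1 : ℕ) % b = 1 := by
        rw [hd2, Nat.one_mod_eq_one]; exact (Fact.out : b.Prime).ne_one
      have h2 : (s' ^ i) ^ (Nat.chineseRemainder hco.symm 0 1 : ℕ) = 1 := by
        rw [hd', pow_mul, ← zpow_natCast (s' ^ i) a, ← zpow_mul, mul_comm i, zpow_mul, zpow_natCast, hs, one_zpow,
          one_pow]
      rw [h2, one_mul, ← Nat.div_add_mod (Nat.chineseRemainder hco.symm 0 1 : ℕ) b, h1, pow_add, pow_mul, ht, one_pow,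
        one_mul, pow_one]
    obtain ⟨e₂, he₂, he₂t⟩ := exists_part π (Fact.out : b.Prime) y₁ (by rw [hπy₁]; exact ht)
    rw [hπy₁] at he₂t
    set y := y₁ ^ e₂ with hy
    have hyN : y ∈ NP ⊓ Subgroup.normalizer (A : Set H) :=
      pow_mem (pow_mem (Subgroup.mem_inf.2 ⟨mul_mem (hK'NP hk') (Subgroup.le_normalizer hy₀P),
        Subgroup.mem_normalizer_iff.2 hn⟩) _) _
    have hyP : y ∈ P := by
      have h1 : IsPGroup b (P ⊔ Subgroup.zpowers y : Subgroup H) :=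
        IsPGroup.to_sup_of_normal_left' hPmax.2.1 he₂ (Subgroup.zpowers_le.2 hyN.1)
      rw [← hPmax.2.2 _ (sup_le hPmax.1 (Subgroup.zpowers_le.2 (by
        rw [Subgroup.mem_comap, he₂t]; exact Subgroup.mem_zpowers _))) h1 le_sup_left]
      exact Subgroup.mem_sup_right (Subgroup.mem_zpowers y)
    refine ⟨y, ⟨hyP, Subgroup.mem_centralizer_iff.2 fun x hx => ?_⟩, he₂t⟩
    have hAP : y * x * y⁻¹ * x⁻¹ ∈ A ⊓ P := Subgroup.mem_inf.2 ⟨mul_mem ((Subgroup.mem_normalizer_iff.1 hyN.2 x).1 hx) (inv_mem hx), by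
      rw [show y * x * y⁻¹ * x⁻¹ = y * (x * y⁻¹ * x⁻¹) by group]
      exact mul_mem hyP ((Subgroup.mem_normalizer_iff.1 (hAmax.1 hx).1 _).1 (inv_mem hyP))⟩
    rw [(IsPGroup.disjoint_of_ne a b hab A P hAmax.2.1 hPmax.2.1).eq_bot, Subgroup.mem_bot, mul_inv_eq_one,
      mul_inv_eq_iff_eq_mul] at hAP
    exact hAP.symm

end Cfsg.Agent.Lib.Chev.F4AltSection
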