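import Cfsg.Agent.Lib.Chev.F4AltSection.Torus
import Cfsg.Agent.Lib.Chev.F4AltSection.Lift
import Mathlib.GroupTheory.Perm.List
import Mathlib.GroupTheory.Perm.ViaEmbedding
import Mathlib.GroupTheory.SpecificGroups.Alternating

/-!
Alternating sections of F₄(q) have degree at most `10`, or `11` in characteristic `11`.
-/

set_option autoImplicit false

namespace Cfsg.Agent.Lib.Chev.F4AltSection

open Cfsg.Lie Equiv

theorem conj_pow_of_commute {Q : Type*} [Group Q] {c g s : Q} {m : ℕ} (hc : Commute c s)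
    (hg : g * s * g⁻¹ = s ^ m) (k : ℕ) : (c * g) ^ k * s * ((c * g) ^ k)⁻¹ = s ^ (m ^ k) := by
  induction k with
  | zero => simp
  | succ k ih =>
    have h1 : c * g * s * (c * g)⁻¹ = s ^ m := by
      rw [show c * g * s * (c * g)⁻¹ = c * (g * s * g⁻¹) * c⁻¹ by group, hg, (hc.pow_right m).eq, mul_inv_cancel_right]
    generalize c * g = d at h1 ih ⊢
    rw [pow_succ', show d * d ^ k * s * (d * d ^ k)⁻¹ = d * (d ^ k * s * (d ^ k)⁻¹) * d⁻¹ by group, ih, ← conj_pow, h1,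
      ← pow_mul, pow_succ']

theorem image_relations {H Q : Type*} [Group H] [Group Q] (π : H →* Q) {a : ℕ} [Fact a.Prime] {x γ : H} {c g : Q}
    {m : ℕ} (hπγ : π γ = c * g) (hc : Commute c (π x)) (hg : g * π x * g⁻¹ = π x ^ m)
    (hs : π x ^ a = 1) (hs1 : π x ≠ 1) (k : ℕ) :
    (γ ^ k * x * (γ ^ k)⁻¹ = x → m ^ k ≡ 1 [MOD a]) ∧ (γ ^ k * x * (γ ^ k)⁻¹ = x⁻¹ → m ^ k + 1 ≡ 0 [MOD a]) := by
  have ho : orderOf (π x) = a := orderOf_eq_prime hs hs1
  constructor <;> intro h <;> have h1 := congrArg π h <;>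
    simp only [map_mul, map_inv, map_pow, hπγ, conj_pow_of_commute hc hg] at h1
  · conv_rhs at h1 => rw [← pow_one (π x)]
    rw [pow_eq_pow_iff_modEq, ho] at h1
    exact h1
  · have h2 : π x ^ (m ^ k + 1) = π x ^ 0 := by rw [pow_succ, h1, inv_mul_cancel, pow_zero]
    rw [pow_eq_pow_iff_modEq, ho] at h2
    exact h2

/-- A permutation of `Fin n` on the first `n` points of `Fin r`. -/
noncomputable def extAlt {n r : ℕ} (h : n ≤ r) : ↥(alternatingGroup (Fin n)) →* ↥(alternatingGroup (Fin r)) :=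
  ((Perm.viaEmbeddingHom (Fin.castLEEmb h)).comp (alternatingGroup (Fin n)).subtype).codRestrict _ fun x => by
    rw [Perm.mem_alternatingGroup]
    show Perm.sign (Perm.viaEmbeddingHom (Fin.castLEEmb h) (x : Perm (Fin n))) = 1
    rw [Perm.viaEmbeddingHom_apply, Perm.viaEmbedding, Perm.sign_extendDomain]
    exact Perm.mem_alternatingGroup.1 x.2

theorem extAlt_injective {n r : ℕ} (h : n ≤ r) : Function.Injective (extAlt h) := fun x y e =>
  Subtype.ext (Perm.viaEmbeddingHom_injective (Fin.castLEEmb h) (congrArg Subtype.val e))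

def s11 : ↥(alternatingGroup (Fin 11)) :=
  ⟨List.formPerm [0, 1, 2, 3, 4, 5, 6, 7, 8, 9, 10], Perm.mem_alternatingGroup.2 (by decide +kernel)⟩

def g11 : ↥(alternatingGroup (Fin 11)) :=
  ⟨List.formPerm [1, 3, 9, 5, 4] * List.formPerm [2, 6, 7, 10, 8], Perm.mem_alternatingGroup.2 (by decide +kernel)⟩

def s12 : ↥(alternatingGroup (Fin 12)) :=
  ⟨List.formPerm [0, 1, 2, 3, 4], Perm.mem_alternatingGroup.2 (by decide +kernel)⟩

def t12 : ↥(alternatingGroup (Fin 12)) :=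
  ⟨List.formPerm [5, 6, 7, 8, 9, 10, 11], Perm.mem_alternatingGroup.2 (by decide +kernel)⟩

def g12 : ↥(alternatingGroup (Fin 12)) :=
  ⟨List.formPerm [1, 2, 4, 3] * List.formPerm [6, 8, 7, 11, 9, 10], Perm.mem_alternatingGroup.2 (by decide +kernel)⟩

theorem facts11 : s11 ^ 11 = 1 ∧ s11 ≠ 1 ∧ g11 * s11 * g11⁻¹ = s11 ^ 3 := by decide +kernel

theorem facts12 : s12 ^ 5 = 1 ∧ s12 ≠ 1 ∧ t12 ^ 7 = 1 ∧ t12 ≠ 1 ∧ s12 * t12 = t12 * s12 ∧
    g12 * s12 * g12⁻¹ = s12 ^ 2 ∧ g12 * t12 * g12⁻¹ = t12 ^ 3 := by decide +kernel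

theorem card_ne_zero {F : Type*} [Field F] [Fintype F] (p : ℕ) [Fact p.Prime] [CharP F p] {a : ℕ} (ha : a.Prime)
    (hpa : p ≠ a) : (Fintype.card F : ZMod a) ≠ 0 := by
  obtain ⟨m, -, hm⟩ := FiniteField.card F p
  rw [hm, Ne, ZMod.natCast_eq_zero_iff]
  exact fun h => hpa ((Nat.prime_dvd_prime_iff_eq ha Fact.out).1 (ha.dvd_of_dvd_pow h)).symm

theorem section_bound {F : Type*} [Field F] [Fintype F] (p : ℕ) [Fact p.Prime] [CharP F p] (r : ℕ)
    (H : Subgroup ↥(chevF4.group F)) (π : ↥H →* ↥(alternatingGroup (Fin r))) (hπ : Function.Surjective π) :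
    r ≤ 10 + (if p = 11 then 1 else 0) := by
  classical
  have h5 : Fact (Nat.Prime 5) := ⟨Nat.prime_five⟩
  have h7 : Fact (Nat.Prime 7) := ⟨by norm_num⟩
  have h11 : Fact (Nat.Prime 11) := ⟨by norm_num⟩
  by_contra hr
  push Not at hr
  by_cases hp : p = 11
  · rw [if_pos hp] at hr
    have hr12 : 12 ≤ r := by omega
    set e := extAlt hr12
    obtain ⟨hs, hs1, ht, ht1, hst, hgs, hgt⟩ := facts12
    obtain ⟨A, B, γ, hA, hB, hAB, hγA, hγB, ⟨x, hx, hxs⟩, ⟨y, hy, hyt⟩, c, hcs, hct, hπγ⟩ :=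
      lift_pair π hπ (a := 5) (b := 7) (by norm_num) (s := e s12) (t := e t12) (g := e g12)
        (by rw [← map_pow, hs, map_one]) (by rw [← map_pow, ht, map_one]) ((show Commute s12 t12 from hst).map e)
        (by rw [← map_inv, ← map_mul, ← map_mul, hgs, map_pow]; exact Subgroup.npow_mem_zpowers _ _)
        (by rw [← map_inv, ← map_mul, ← map_mul, hgt, map_pow]; exact Subgroup.npow_mem_zpowers _ _)
    have hcase := auto_cases (a := 5) (b := 7) (by norm_num) (by norm_num)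
      (card_ne_zero p Nat.prime_five (by omega)) (card_ne_zero p (Fact.out : Nat.Prime 7) (by omega))
      (A.map H.subtype) (B.map H.subtype) (hA.map _) (hB.map _) (by
        rintro _ ⟨u, hu, rfl⟩ _ ⟨v, hv, rfl⟩
        rw [← map_mul, ← map_mul, hAB u hu v hv])
      (γ : ↥(chevF4.group F)) (by
        rintro _ ⟨u, hu, rfl⟩
        exact ⟨_, hγA u hu, rfl⟩) (by
        rintro _ ⟨u, hu, rfl⟩
        exact ⟨_, hγB u hu, rfl⟩)
    have rx := image_relations π (a := 5) (x := x) hπγ (hxs.symm ▸ hcs)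
      (show e g12 * π x * (e g12)⁻¹ = π x ^ 2 by rw [hxs, ← map_inv, ← map_mul, ← map_mul, hgs, map_pow])
      (by rw [hxs, ← map_pow, hs, map_one]) (fun h => hs1 (extAlt_injective hr12 (by rw [map_one, ← h, hxs])))
    have ry := image_relations π (a := 7) (x := y) hπγ (hyt.symm ▸ hct)
      (show e g12 * π y * (e g12)⁻¹ = π y ^ 3 by rw [hyt, ← map_inv, ← map_mul, ← map_mul, hgt, map_pow])
      (by rw [hyt, ← map_pow, ht, map_one]) (fun h => ht1 (extAlt_injective hr12 (by rw [map_one, ← h, hyt])))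
    rcases hcase with h | h | h
    · exact absurd ((ry 8).1 (Subtype.ext (h _ (Or.inr ⟨y, hy, rfl⟩)))) (by decide)
    · exact absurd ((rx 6).1 (Subtype.ext (h _ (Or.inl ⟨x, hx, rfl⟩)))) (by decide)
    · exact absurd ((ry 6).2 (Subtype.ext (h _ (Or.inr ⟨y, hy, rfl⟩)))) (by decide)
  · rw [if_neg hp] at hr
    have hr11 : 11 ≤ r := by omega
    set e := extAlt hr11
    obtain ⟨hs, hs1, hgs⟩ := facts11
    obtain ⟨A, γ, hA, hγA, ⟨x, hx, hxs⟩, c, hcs, hπγ⟩ :=
      lift_one π hπ (a := 11) (s := e s11) (g := e g11) (by rw [← map_pow, hs, map_one])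
        (by rw [← map_inv, ← map_mul, ← map_mul, hgs, map_pow]; exact Subgroup.npow_mem_zpowers _ _)
    have hcase := auto_cases (a := 11) (b := 11) (by norm_num) (by norm_num)
      (card_ne_zero p (Fact.out : Nat.Prime 11) hp) (card_ne_zero p (Fact.out : Nat.Prime 11) hp)
      (A.map H.subtype) ⊥ (hA.map _) IsPGroup.of_bot (by
        intro u _ v hv
        rw [Subgroup.mem_bot.1 hv, one_mul, mul_one])
      (γ : ↥(chevF4.group F)) (by
        rintro _ ⟨u, hu, rfl⟩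
        exact ⟨_, hγA u hu, rfl⟩) (by
        intro v hv
        rw [Subgroup.mem_bot.1 hv]
        simp)
    have rx := image_relations π (a := 11) (x := x) hπγ (hxs.symm ▸ hcs)
      (show e g11 * π x * (e g11)⁻¹ = π x ^ 3 by rw [hxs, ← map_inv, ← map_mul, ← map_mul, hgs, map_pow])
      (by rw [hxs, ← map_pow, hs, map_one]) (fun h => hs1 (extAlt_injective hr11 (by rw [map_one, ← h, hxs])))
    rcases hcase with h | h | h
    · exact absurd ((rx 8).1 (Subtype.ext (h _ (Or.inl ⟨x, hx, rfl⟩)))) (by decide)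
    · exact absurd ((rx 6).1 (Subtype.ext (h _ (Or.inl ⟨x, hx, rfl⟩)))) (by decide)
    · exact absurd ((rx 6).2 (Subtype.ext (h _ (Or.inl ⟨x, hx, rfl⟩)))) (by decide)

end Cfsg.Agent.Lib.Chev.F4AltSection
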