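import Cfsg.Agent.Lib.Chev.F4AltSection.Weyl
import Cfsg.Agent.Lib.Chev.CoxTorus.Conj
import Cfsg.Agent.Lib.Chev.Homocyclic.Main
import Cfsg.Agent.Lib.Chev.Orders
import Cfsg.Agent.Lib.Chev.FieldAut
import Mathlib.FieldTheory.Finite.Extension
import Mathlib.GroupTheory.Sylow

/-!
In F₄ two commuting subgroups of coprime prime power order, prime to `6p`, are diagonalised together, and an element
normalising both acts through the Weyl group.
-/

set_option autoImplicit false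

namespace Cfsg.Agent.Lib.Chev.F4AltSection

open Cfsg.Lie Cfsg.Agent.Lib Cfsg.Agent.Lib.Chev Homocyclic
open Cfsg.Agent.Lib.Chev.CoxTorus (wMat wMat_pow cV cV_sg fnl mono_torus_iff conj_decomp' sgPerm)

/-- Two commuting subgroups, moved into the torus. -/
theorem diagonalise {L : Type*} [Field L] [Fintype L] {a b : ℕ} [Fact a.Prime] [Fact b.Prime]
    (ha : 3 < a) (hb : 3 < b) (hQa : (Fintype.card L : ZMod a) = 1) (hQb : (Fintype.card L : ZMod b) = 1)
    (A B : Subgroup ↥(chevF4.group L)) (hA : IsPGroup a A) (hB : IsPGroup b B)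
    (hAB : ∀ x ∈ A, ∀ y ∈ B, x * y = y * x) :
    ∃ g : ↥(chevF4.group L), ∀ x, x ∈ A ∨ x ∈ B →
      ((g * x * g⁻¹ : ↥(chevF4.group L)) : GL chevF4.Idx L) ∈ chevF4.diagonalSubgroup L := by
  classical
  set C := F4.checked
  have hW : ∀ r : ℕ, r.Prime → 3 < r → ¬ r ∣ List.prod [2, 6, 8, 12] := by
    intro r hr h3 h
    have h' : r ∣ 2 ^ 7 * 3 ^ 2 := by simpa using h
    rcases (Nat.Prime.dvd_mul hr).1 h' with h1 | h1
    · have := Nat.le_of_dvd (by norm_num) (hr.dvd_of_dvd_pow h1); omega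
    · have := Nat.le_of_dvd (by norm_num) (hr.dvd_of_dvd_pow h1); omega
  obtain ⟨g, hg⟩ := conj_subgroup C (degs := [2, 6, 8, 12]) (by decide +kernel) (by simp) (r := a)
    (hW a Fact.out ha) hQa A hA
  set A' := A.map (MulAut.conj g).toMonoidHom with hA'
  set B' := B.map (MulAut.conj g).toMonoidHom with hB'
  set Cn := Subgroup.centralizer (A' : Set ↥(chevF4.group L)) with hCn
  have hdiag : ∀ x ∈ A', (x : GL chevF4.Idx L) ∈ chevF4.diagonalSubgroup L := by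
    rintro _ ⟨x, hx, rfl⟩
    exact hg x hx
  have hTCn : (chevF4.diagonalSubgroup L).subgroupOf (chevF4.group L) ≤ Cn := fun t ht => by
    rw [hCn, Subgroup.mem_centralizer_iff]
    exact fun x hx => Subtype.ext (C.diag_comm (hdiag x hx) ht)
  obtain ⟨S⟩ : Nonempty (Sylow b ↥(chevF4.group L)) := inferInstance
  obtain ⟨g₁, hg₁⟩ := conj_subgroup C (degs := [2, 6, 8, 12]) (by decide +kernel) (by simp) (r := b)
    (hW b Fact.out hb) hQb (S : Subgroup ↥(chevF4.group L)) S.isPGroup'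
  set S' : Sylow b ↥(chevF4.group L) := g₁ • S with hS'
  have hS'T : (S' : Subgroup ↥(chevF4.group L)) ≤ (chevF4.diagonalSubgroup L).subgroupOf (chevF4.group L) := by
    intro y hy
    rw [hS', Sylow.smul_def, Sylow.pointwise_smul_def, Subgroup.mem_pointwise_smul_iff_inv_smul_mem] at hy
    simp only [← map_inv, MulAut.smul_def, MulAut.conj_apply, inv_inv] at hy
    have := hg₁ _ hy
    rw [show g₁ * (g₁⁻¹ * y * g₁) * g₁⁻¹ = y by group] at this
    exact Subgroup.mem_subgroupOf.2 this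
  let SC : Sylow b ↥Cn := S'.subtype (hS'T.trans hTCn)
  have hB'Cn : B' ≤ Cn := by
    rintro _ ⟨y, hy, rfl⟩
    rw [hCn, Subgroup.mem_centralizer_iff]
    rintro _ ⟨x, hx, rfl⟩
    rw [← map_mul, ← map_mul, hAB x hx y hy]
  obtain ⟨R, hR⟩ := ((hB.map _).comap_of_injective Cn.subtype Cn.subtype_injective :
    IsPGroup b (B'.subgroupOf Cn)).exists_le_sylow
  obtain ⟨m, hm⟩ := MulAction.exists_smul_eq ↥Cn R SC
  refine ⟨(m : ↥(chevF4.group L)) * g, fun x hx => ?_⟩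
  have e : (m : ↥(chevF4.group L)) * g * x * ((m : ↥(chevF4.group L)) * g)⁻¹ =
      (m : ↥(chevF4.group L)) * (g * x * g⁻¹) * (m : ↥(chevF4.group L))⁻¹ := by group
  rcases hx with hx | hx
  · rw [e, ← Subgroup.mem_centralizer_iff.1 m.2 _ (⟨x, hx, rfl⟩ : g * x * g⁻¹ ∈ A'), mul_inv_cancel_right]
    exact hg x hx
  · have hxm : (g * x * g⁻¹) ∈ B' := ⟨x, hx, rfl⟩
    let y : ↥Cn := ⟨g * x * g⁻¹, hB'Cn hxm⟩
    have hy : m * y * m⁻¹ ∈ (SC : Subgroup ↥Cn) := by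
      rw [← hm, Sylow.smul_def, Sylow.pointwise_smul_def, Subgroup.mem_pointwise_smul_iff_inv_smul_mem]
      simp only [← map_inv, MulAut.smul_def, MulAut.conj_apply, inv_inv]
      rw [show m⁻¹ * (m * y * m⁻¹) * m = y by group]
      exact hR hxm
    rw [e]
    exact Subgroup.mem_subgroupOf.1 (hS'T hy)

theorem root_eq_of_wMat {L : Type*} [Field L] {n : GL chevF4.Idx L} (hn : n ∈ chevF4.monomialSubgroup L)
    {v : ℕ} (hv : v < chevF4.nroots) :
    (wMat F4.checked n = 1 → F4.checked.sg n v = v) ∧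
      (wMat F4.checked n = -1 → F4.checked.sg n v = chevF4.neg v) := by
  set C := F4.checked
  refine ⟨fun h => C.root_ext (C.sg_lt hn hv) hv fun j hj => ?_,
    fun h => C.root_ext (C.sg_lt hn hv) (C.root.neg_lt _ hv) fun j hj => ?_⟩
  · have := congrFun (cV_sg C hn hv) ⟨j, hj⟩
    rwa [h, Matrix.vecMul_one] at this
  · have := congrFun (cV_sg C hn hv) ⟨j, hj⟩
    rw [h, Matrix.vecMul_neg, Matrix.vecMul_one] at this
    rw [C.root.coef_neg hv hj]
    exact this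

theorem chrOf_inv {L : Type*} [Field L] (c : Fin chevF4.rank → Lˣ) {v : ℕ} (hv : v < chevF4.nroots) :
    F4.checked.chrOf c⁻¹ (chevF4.neg v) = F4.checked.chrOf c v := by
  set C := F4.checked
  rw [C.chrOf_lin _ (C.root.neg_lt _ hv), C.chrOf_lin c hv]
  refine congrArg Units.val (Finset.prod_congr rfl fun k _ => ?_)
  rw [C.root.coef_neg hv k.2, ← C.cartanMap_apply, ← C.cartanMap_apply, map_inv, Pi.inv_apply, zpow_neg, inv_zpow, inv_inv]

/-- A normalising element acts through a Weyl group element. -/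
theorem weyl_action {L : Type*} [Field L] (γ : ↥(chevF4.group L)) (S : Set (GL chevF4.Idx L))
    (hS : ∀ x ∈ S, x ∈ chevF4.diagonalSubgroup L)
    (hγ : ∀ x ∈ S, (γ : GL chevF4.Idx L) * x * (γ : GL chevF4.Idx L)⁻¹ ∈ S) :
    ∃ n ∈ chevF4.monomialSubgroup L, ∀ k : ℕ, ∀ x ∈ S,
      (wMat F4.checked n ^ k = 1 → (γ : GL chevF4.Idx L) ^ k * x * ((γ : GL chevF4.Idx L) ^ k)⁻¹ = x) ∧
      (wMat F4.checked n ^ k = -1 → (γ : GL chevF4.Idx L) ^ k * x * ((γ : GL chevF4.Idx L) ^ k)⁻¹ = x⁻¹) := by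
  set C := F4.checked
  obtain ⟨b, hb, n, hn, u, hu, e⟩ := C.exists_bnu γ.2
  set γv := (γ : GL chevF4.Idx L) with hγv
  have h1 : ∀ x ∈ S, γv * x * γv⁻¹ = n * x * n⁻¹ := by
    intro x hx
    obtain ⟨c, hc⟩ := C.exists_torus (hS x hx)
    obtain ⟨c', hc'⟩ := C.exists_torus (hS _ (hγ x hx))
    have hrel := (conj_decomp' C hb hn hu (c := c) (c' := c') (by
      rw [hc', hc, ← e]; group)).1
    rw [← hc', ← hc, eq_mul_inv_iff_mul_eq]
    exact ((mono_torus_iff C hn c c').2 hrel).symm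
  have hk : ∀ (k : ℕ), ∀ x ∈ S, γv ^ k * x * (γv ^ k)⁻¹ ∈ S ∧ γv ^ k * x * (γv ^ k)⁻¹ = n ^ k * x * (n ^ k)⁻¹ := by
    intro k
    induction k with
    | zero => intro x hx; simpa using hx
    | succ k ih =>
      intro x hx
      obtain ⟨h2, h3⟩ := ih x hx
      have e1 : γv ^ (k + 1) * x * (γv ^ (k + 1))⁻¹ = γv * (γv ^ k * x * (γv ^ k)⁻¹) * γv⁻¹ := by
        rw [pow_succ']; group
      refine ⟨e1 ▸ hγ _ h2, ?_⟩
      rw [e1, h1 _ h2, h3, pow_succ']
      group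
  refine ⟨n, hn, fun k x hx => ?_⟩
  rw [(hk k x hx).2, ← wMat_pow C hn]
  obtain ⟨c, rfl⟩ := C.exists_torus (hS x hx)
  have hnk := pow_mem hn k
  constructor
  · intro h
    rw [mul_inv_eq_iff_eq_mul, (mono_torus_iff C hnk c c).2 fun v hv => by rw [(root_eq_of_wMat hnk hv).1 h]]
  · intro h
    rw [mul_inv_eq_iff_eq_mul, show (C.torus c)⁻¹ = C.torus c⁻¹ from (map_inv C.torusHom c).symm,
      (mono_torus_iff C hnk c c⁻¹).2 fun v hv => by rw [(root_eq_of_wMat hnk hv).2 h, chrOf_inv c hv]]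

/-- The automorphism induced on two commuting subgroups. -/
theorem auto_cases {F : Type*} [Field F] [Fintype F] {a b : ℕ} [Fact a.Prime] [Fact b.Prime]
    (ha : 3 < a) (hb : 3 < b) (hqa : (Fintype.card F : ZMod a) ≠ 0) (hqb : (Fintype.card F : ZMod b) ≠ 0)
    (A B : Subgroup ↥(chevF4.group F)) (hA : IsPGroup a A) (hB : IsPGroup b B)
    (hAB : ∀ x ∈ A, ∀ y ∈ B, x * y = y * x) (γ : ↥(chevF4.group F)) (hγA : ∀ x ∈ A, γ * x * γ⁻¹ ∈ A)
    (hγB : ∀ y ∈ B, γ * y * γ⁻¹ ∈ B) :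
    (∀ x, x ∈ A ∨ x ∈ B → γ ^ 8 * x * (γ ^ 8)⁻¹ = x) ∨ (∀ x, x ∈ A ∨ x ∈ B → γ ^ 6 * x * (γ ^ 6)⁻¹ = x) ∨
      (∀ x, x ∈ A ∨ x ∈ B → γ ^ 6 * x * (γ ^ 6)⁻¹ = x⁻¹) := by
  classical
  set C := F4.checked
  obtain ⟨p, hchar⟩ := CharP.exists F
  have : Fact p.Prime := ⟨CharP.char_is_prime F p⟩
  set d := (a - 1) * (b - 1) with hd
  have : NeZero d := ⟨Nat.mul_ne_zero (by omega) (by omega)⟩
  let L := FiniteField.Extension F p d
  let _ : Fintype L := Fintype.ofFinite L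
  have hL : Fintype.card L = Fintype.card F ^ d := by
    rw [← Nat.card_eq_fintype_card, FiniteField.natCard_extension, Nat.card_eq_fintype_card]
  have hQa : (Fintype.card L : ZMod a) = 1 := by
    rw [hL, Nat.cast_pow, hd, pow_mul, ZMod.pow_card_sub_one_eq_one hqa, one_pow]
  have hQb : (Fintype.card L : ZMod b) = 1 := by
    rw [hL, Nat.cast_pow, hd, mul_comm, pow_mul, ZMod.pow_card_sub_one_eq_one hqb, one_pow]
  let i : F →+* L := algebraMap F L
  let ι : ↥(chevF4.group F) →* ↥(chevF4.group L) :=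
    { toFun := fun g => ⟨gmap chevF4 i g, C.gmap_group i g.2⟩
      map_one' := Subtype.ext (map_one (gmap chevF4 i))
      map_mul' := fun g h => Subtype.ext (map_mul (gmap chevF4 i) _ _) }
  have hι : Function.Injective ι := fun g h e => Subtype.ext (gmap_injective i (congrArg Subtype.val e))
  obtain ⟨g, hg⟩ := diagonalise ha hb hQa hQb (A.map ι) (B.map ι) (hA.map _) (hB.map _) (by
    rintro _ ⟨x, hx, rfl⟩ _ ⟨y, hy, rfl⟩
    rw [← map_mul, ← map_mul, hAB x hx y hy])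
  let φ : ↥(chevF4.group F) →* GL chevF4.Idx L :=
    ((chevF4.group L).subtype.comp (MulAut.conj g).toMonoidHom).comp ι
  have hφ : Function.Injective φ :=
    (Subtype.val_injective.comp (MulAut.conj g).injective).comp hι
  set S : Set (GL chevF4.Idx L) := φ '' {x | x ∈ A ∨ x ∈ B} with hS
  obtain ⟨n, hn, hact⟩ := weyl_action (g * ι γ * g⁻¹) S (by
    rintro _ ⟨x, hx, rfl⟩
    exact hg (ι x) (hx.imp (fun h => ⟨x, h, rfl⟩) fun h => ⟨x, h, rfl⟩)) (by
    rintro _ ⟨x, hx, rfl⟩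
    refine ⟨γ * x * γ⁻¹, hx.imp (hγA x) (hγB x), ?_⟩
    rw [map_mul, map_mul, map_inv]
    rfl)
  have back : ∀ (k : ℕ) (x y : ↥(chevF4.group F)),
      ((g * ι γ * g⁻¹ : ↥(chevF4.group L)) : GL chevF4.Idx L) ^ k * φ x *
        (((g * ι γ * g⁻¹ : ↥(chevF4.group L)) : GL chevF4.Idx L) ^ k)⁻¹ = φ y → γ ^ k * x * (γ ^ k)⁻¹ = y := by
    intro k x y h
    refine hφ ?_
    rw [map_mul, map_mul, map_inv, map_pow]
    exact h
  rcases wMat_pow_cases hn with h | h | h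
  · exact Or.inl fun x hx => back 8 x x ((hact 8 _ ⟨x, hx, rfl⟩).1 h)
  · exact Or.inr (Or.inl fun x hx => back 6 x x ((hact 6 _ ⟨x, hx, rfl⟩).1 h))
  · refine Or.inr (Or.inr fun x hx => back 6 x x⁻¹ ?_)
    rw [map_inv φ x]
    exact (hact 6 _ ⟨x, hx, rfl⟩).2 h

end Cfsg.Agent.Lib.Chev.F4AltSection
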