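import Cfsg.Agent.Lib.Chev.F4AltSection.Data
import Cfsg.Agent.Lib.Chev.CoxTorus.Weyl

/-!
Every element `w` of W(F₄) has `w⁸ = 1`, `w⁶ = 1` or `w⁶ = -1`.
-/

set_option autoImplicit false

namespace Cfsg.Agent.Lib.Chev.F4AltSection

open Cfsg.Lie Cfsg.Agent.Lib Cfsg.Agent.Lib.Chev
open Cfsg.Agent.Lib.Chev.CoxTorus (wMat)

/-- A digit. -/
def dig (c j : ℕ) : ℕ := c / 48 ^ (3 - j) % 48

/-- The code of four roots. -/
def enc (f : ℕ → ℕ) : ℕ := ((f 0 * 48 + f 1) * 48 + f 2) * 48 + f 3

theorem dig_lt (c j : ℕ) : dig c j < 48 := Nat.mod_lt _ (by norm_num)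

theorem dig_enc (f : ℕ → ℕ) (hf : ∀ j < 4, f j < 48) {j : ℕ} (hj : j < 4) : dig (enc f) j = f j := by
  have h0 := hf 0 (by norm_num)
  have h1 := hf 1 (by norm_num)
  have h2 := hf 2 (by norm_num)
  have h3 := hf 3 (by norm_num)
  interval_cases j <;> simp only [dig, enc] <;> norm_num <;> omega

/-- Rows of the matrix of a code. -/
def rows (c : ℕ) : List (List ℤ) := (List.range 4).map fun j => (List.range 4).map fun k => F4.fast.cf (dig c j) k

/-- An entry. -/
def ent (A : List (List ℤ)) (i j : ℕ) : ℤ := (A.getD i []).getD j 0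

/-- Product of lists. -/
def mulL (A B : List (List ℤ)) : List (List ℤ) :=
  (List.range 4).map fun i => (List.range 4).map fun j =>
    ent A i 0 * ent B 0 j + ent A i 1 * ent B 1 j + ent A i 2 * ent B 2 j + ent A i 3 * ent B 3 j

/-- The matrix of a list. -/
def toM (A : List (List ℤ)) : Matrix (Fin 4) (Fin 4) ℤ := Matrix.of fun i j => ent A i j

theorem ent_tab (f : ℕ → ℕ → ℤ) {i j : ℕ} (hi : i < 4) (hj : j < 4) :
    ent ((List.range 4).map fun i => (List.range 4).map fun j => f i j) i j = f i j := by
  simp [ent, List.getD, hi, hj]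

theorem toM_mulL (A B : List (List ℤ)) : toM (mulL A B) = toM A * toM B := by
  ext i j
  rw [Matrix.mul_apply, Fin.sum_univ_four]
  show ent (mulL A B) i j = _
  rw [mulL, ent_tab (fun i j => ent A i 0 * ent B 0 j + ent A i 1 * ent B 1 j + ent A i 2 * ent B 2 j +
    ent A i 3 * ent B 3 j) i.2 j.2]
  rfl

/-- Equality with a scalar matrix. -/
def isScal (A : List (List ℤ)) (s : ℤ) : Bool :=
  allBelow 4 fun i => allBelow 4 fun j => decide (ent A i j = if i = j then s else 0)

theorem toM_of_isScal {A : List (List ℤ)} {s : ℤ} (h : isScal A s = true) : toM A = s • 1 := by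
  simp only [isScal, allBelow_iff, decide_eq_true_eq] at h
  ext i j
  show ent A i j = _
  rw [h i i.2 j j.2, Matrix.smul_apply, Matrix.one_apply]
  by_cases e : i = j <;> simp [e, Fin.val_eq_val]

/-- The check of the powers. -/
def powCheck (c : ℕ) : Bool :=
  let M := rows c
  let M2 := mulL M M
  let M4 := mulL M2 M2
  let M6 := mulL M4 M2
  isScal (mulL M4 M4) 1 || isScal M6 1 || isScal M6 (-1)

theorem pow_checked : wTree.forallKeys powCheck = true := by decide +kernel

/-- The check of closure under the simple reflections. -/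
def stepCheck (c : ℕ) : Bool :=
  allBelow 4 fun i => wTree.has (enc fun j => F4.fast.w i (dig c j))

theorem step_checked : wTree.forallKeys stepCheck = true := by decide +kernel

theorem start_checked : wTree.has (enc fun j => F4.fast.sp j) = true := by decide +kernel

theorem tree_size : ∀ c, wTree.has c = true → c < 48 ^ 4 :=
  fun c h => of_decide_eq_true (Tr.has_forall wTree (fun c => decide (c < 48 ^ 4)) (by decide +kernel) c h)

theorem enc_congr {f g : ℕ → ℕ} (h : ∀ j < 4, f j = g j) : enc f = enc g := by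
  simp only [enc, h 0 (by norm_num), h 1 (by norm_num), h 2 (by norm_num), h 3 (by norm_num)]

theorem enc_dig {c : ℕ} (hc : c < 48 ^ 4) : (enc fun j => dig c j) = c := by
  simp only [enc, dig]
  norm_num at hc ⊢
  omega

/-- Monomial elements permute the listed tuples. -/
theorem mem_closed {F : Type*} [Field F] {n : GL chevF4.Idx F} (hn : n ∈ chevF4.monomialSubgroup F) :
    ∀ c, wTree.has c = true → wTree.has (enc fun j => F4.checked.sg n (dig c j)) = true := by
  classical
  set C := F4.checked with hC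
  have hlt : ∀ c j, dig c j < chevF4.nroots := fun c j => dig_lt c j
  rw [C.monomial_eq] at hn
  induction hn using Subgroup.closure_induction with
  | mem x hx =>
    intro c hc
    rcases hx with hx | ⟨i, hi, rfl⟩
    · rw [enc_congr fun j _ => C.sg_diag hx (hlt c j), enc_dig (tree_size c hc)]
      exact hc
    · have h := Tr.has_forall wTree stepCheck step_checked c hc
      simp only [stepCheck, allBelow_iff] at h
      rw [enc_congr fun j _ => (C.sg_ng hi (hlt c j)).trans (C.refl i hi _ (hlt c j))]
      exact h i hi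
  | one =>
    intro c hc
    rw [enc_congr fun j _ => C.sg_one (hlt c j), enc_dig (tree_size c hc)]
    exact hc
  | mul x y hx hy ihx ihy =>
    intro c hc
    rw [← C.monomial_eq] at hx hy
    have h := ihx _ (ihy c hc)
    rw [enc_congr fun j hj => ?_] at h
    · exact h
    · rw [dig_enc _ (fun j _ => C.sg_lt hy (hlt c j)) hj, C.sg_mul hx hy (hlt c j)]
  | inv x hx ih =>
    intro c hc
    rw [← C.monomial_eq] at hx
    let S := {c : Fin (48 ^ 4) // wTree.has (c : ℕ) = true}
    let f : S → S := fun d => ⟨⟨_, tree_size _ (ih _ d.2)⟩, ih _ d.2⟩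
    have hf : Function.Injective f := by
      intro d d' h
      have h1 : (enc fun j => C.sg x (dig (d.1 : ℕ) j)) = enc fun j => C.sg x (dig (d'.1 : ℕ) j) :=
        congrArg (fun z : S => (z.1 : ℕ)) h
      refine Subtype.ext (Fin.ext ?_)
      rw [← enc_dig d.1.2, ← enc_dig d'.1.2]
      refine enc_congr fun j hj => ?_
      have h2 := congrArg (fun z => dig z j) h1
      simp only [dig_enc _ (fun j _ => C.sg_lt hx (hlt _ j)) hj] at h2
      have h3 := congrArg (C.sg x⁻¹) h2
      rwa [C.sg_inv_sg hx (hlt _ j), C.sg_inv_sg hx (hlt _ j)] at h3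
    obtain ⟨d, hd⟩ := (Finite.injective_iff_surjective.1 hf) ⟨⟨c, tree_size c hc⟩, hc⟩
    have hd' : (enc fun j => C.sg x (dig (d.1 : ℕ) j)) = c := congrArg (fun z : S => (z.1 : ℕ)) hd
    rw [enc_congr fun j hj => ?_, enc_dig d.1.2]
    · exact d.2
    · rw [← hd', dig_enc _ (fun j _ => C.sg_lt hx (hlt _ j)) hj, C.sg_inv_sg hx (hlt _ j)]

theorem pow_expand (M : Matrix (Fin 4) (Fin 4) ℤ) :
    M ^ 8 = M * M * (M * M) * (M * M * (M * M)) ∧ M ^ 6 = M * M * (M * M) * (M * M) := by
  constructor <;> simp only [pow_succ, pow_zero, one_mul, mul_assoc]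

/-- The powers of an element of W(F₄). -/
theorem wMat_pow_cases {F : Type*} [Field F] {n : GL chevF4.Idx F} (hn : n ∈ chevF4.monomialSubgroup F) :
    wMat F4.checked n ^ 8 = 1 ∨ wMat F4.checked n ^ 6 = 1 ∨ wMat F4.checked n ^ 6 = -1 := by
  set C := F4.checked
  set c := enc fun j => C.sg n (dig (enc fun j => F4.fast.sp j) j) with hc
  have hmem := mem_closed hn _ start_checked
  have hM : wMat C n = toM (rows c) := by
    ext j k
    show F4.fast.aux.coef (C.sg n (chevF4.simple j)) k = ent (rows c) j k
    have hsp : ∀ i < 4, F4.fast.sp i < 48 := fun i hi => by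
      rw [← C.tables.simple i hi]; exact C.root.simple_lt i hi
    rw [rows, ent_tab (fun j k => F4.fast.cf (dig c j) k) j.2 k.2, hc,
      dig_enc _ (fun i _ => C.sg_lt hn (dig_lt _ i)) j.2, dig_enc _ hsp j.2, ← C.tables.simple j j.2]
    rfl
  have hp := Tr.has_forall wTree powCheck pow_checked c hmem
  simp only [powCheck, Bool.or_eq_true] at hp
  have h2 := toM_mulL (rows c) (rows c)
  rcases hp with (h | h) | h
  · refine Or.inl ?_
    have := toM_of_isScal h
    rw [toM_mulL, toM_mulL, h2, one_smul, ← hM] at this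
    exact (pow_expand _).1.trans this
  · refine Or.inr (Or.inl ?_)
    have := toM_of_isScal h
    rw [toM_mulL, toM_mulL, h2, one_smul, ← hM] at this
    exact (pow_expand _).2.trans this
  · refine Or.inr (Or.inr ?_)
    have := toM_of_isScal h
    rw [toM_mulL, toM_mulL, h2, neg_one_smul, ← hM] at this
    exact (pow_expand _).2.trans this

end Cfsg.Agent.Lib.Chev.F4AltSection
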